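import Cfsg.Agent.Lib.Fit.Solvable
import Cfsg.Agent.Lib.Solv.SylowIn

/-!
# Carter subgroups
-/

set_option autoImplicit false

namespace Cfsg.Agent.Fit

open Subgroup
open scoped Pointwise

universe u

section

variable {G : Type*} [Group G]

/-- A nilpotent self-normalizing subgroup. -/
def IsCarter (C : Subgroup G) : Prop := Group.IsNilpotent C ∧ normalizer (C : Set G) = C

theorem IsCarter.subgroupOf {C L : Subgroup G} (h : IsCarter C) (hL : C ≤ L) :
    IsCarter (C.subgroupOf L) :=
  ⟨isNilpotent_subgroupOf h.1 L, by rw [← subgroupOf_normalizer_eq hL, h.2]⟩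

theorem IsCarter.conj {C : Subgroup G} (h : IsCarter C) (g : G) : IsCarter (MulAut.conj g • C) :=
  ⟨isNilpotent_conj_smul h.1 g, by rw [Solv.normalizer_conj_smul, h.2]⟩

theorem conj_smul_eq_of_subgroupOf {C D L : Subgroup G} (hC : C ≤ L) (hD : D ≤ L) {k : L}
    (h : MulAut.conj k • C.subgroupOf L = D.subgroupOf L) : MulAut.conj (k : G) • C = D := by
  rw [← conj_smul_subgroupOf'] at h
  rw [← map_subgroupOf_eq_of_le (conj_smul_le_of_le hC k), h, map_subgroupOf_eq_of_le hD]

theorem map_pPrimeCore_of_isNilpotent [Finite G] [Group.IsNilpotent G] {G' : Type*} [Group G']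
    {p : ℕ} (hp : p.Prime) {f : G →* G'} (hf : Function.Surjective f) :
    (pPrimeCore p G).map f = pPrimeCore p G' := by
  have := Finite.of_surjective f hf
  refine le_antisymm (map_pPrimeCore_le hf) ?_
  have : ((pPrimeCore p G).map f).Normal := Normal.map inferInstance f hf
  refine le_of_le_sup_of_coprime (K := (pCore p G).map f) ?_
    (coprime_card_of_isPGroup ((isPGroup_pCore p G).map f) (coprime_card_pPrimeCore p G')).symm
  rw [← Subgroup.map_sup, sup_comm, pCore_sup_pPrimeCore_eq_top hp, map_top_of_surjective f hf]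
  exact le_top

theorem map_conj_smul {G' : Type*} [Group G'] (f : G →* G') (g : G) (H : Subgroup G) :
    (MulAut.conj g • H).map f = MulAut.conj (f g) • H.map f := by
  rw [conj_smul_eq_map, conj_smul_eq_map, map_map, map_map]
  congr 1
  ext x
  simp

theorem IsCarter.normalizer_sup {C N : Subgroup G} (h : IsCarter C)
    (hc : ∀ D : Subgroup G, IsCarter D → D ≤ C ⊔ N → ∃ k ∈ C ⊔ N, MulAut.conj k • D = C) :
    normalizer ((C ⊔ N : Subgroup G) : Set G) = C ⊔ N := by
  refine le_antisymm (fun x hx => ?_) le_normalizer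
  obtain ⟨k, hk, e⟩ := hc _ (h.conj x) (conj_smul_le_of_mem_normalizer le_sup_left hx)
  rw [conj_smul_conj_smul, conj_smul_eq_self_iff, h.2] at e
  exact (mul_mem_cancel_left hk).mp (mem_sup_left e)

theorem normalizer_map_mk'_eq_iff {C N : Subgroup G} [N.Normal] :
    normalizer ((C.map (QuotientGroup.mk' N) : Subgroup _) : Set (G ⧸ N)) =
      C.map (QuotientGroup.mk' N) ↔ normalizer ((C ⊔ N : Subgroup G) : Set G) = C ⊔ N := by
  rw [← (comap_injective (QuotientGroup.mk'_surjective N)).eq_iff,
    comap_normalizer_eq_of_surjective _ (QuotientGroup.mk'_surjective N), comap_map_mk']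

theorem IsCarter.eq_top [Group.IsNilpotent G] {C : Subgroup G} (h : IsCarter C) : C = ⊤ := by
  by_contra hn
  exact (lt_normalizer_of_isNilpotent hn).ne h.2.symm

end

theorem carter_conj_aux (n : ℕ) :
    ∀ (G : Type u) [Group G] [Finite G] [Group.IsSolvable G], Nat.card G = n →
      ∀ C D : Subgroup G, IsCarter C → IsCarter D → ∃ g : G, MulAut.conj g • C = D := by
  induction n using Nat.strong_induction_on with
  | _ n ih =>
  intro G _ _ _ hn
  have ihL : ∀ L : Subgroup G, L ≠ ⊤ → ∀ C D : Subgroup G, IsCarter C → IsCarter D → C ≤ L →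
      D ≤ L → ∃ k ∈ L, MulAut.conj k • C = D := fun L hL C D hC hD hCL hDL => by
    obtain ⟨k, hk⟩ := ih _ (hn ▸ card_lt_card_of_ne_top hL) L rfl _ _ (hC.subgroupOf hCL)
      (hD.subgroupOf hDL)
    exact ⟨k, k.2, conj_smul_eq_of_subgroupOf hCL hDL hk⟩
  cases subsingleton_or_nontrivial G
  · exact fun C D _ _ => ⟨1, Subsingleton.elim _ _⟩
  obtain ⟨N, p, hN, hNb, hp, -, -, hpN, -⟩ := exists_minimal_normal_elementary G
  have : Fact p.Prime := ⟨hp⟩
  have himg : ∀ C : Subgroup G, IsCarter C → IsCarter (C.map (QuotientGroup.mk' N)) := by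
    intro C hC
    refine ⟨isNilpotent_map hC.1 _, normalizer_map_mk'_eq_iff.mpr ?_⟩
    by_cases h : C ⊔ N = ⊤
    · rw [h, normalizer_eq_top]
    · exact hC.normalizer_sup fun D hD hle => ihL _ h D C hD hC hle le_sup_left
  suffices H : ∀ C D : Subgroup G, IsCarter C → IsCarter D → C ⊔ N = D ⊔ N →
      ∃ g : G, MulAut.conj g • C = D by
    intro C D hC hD
    obtain ⟨g, hg⟩ := ih _ (hn ▸ card_quotient_lt hNb) _ rfl _ _ (himg C hC) (himg D hD)
    obtain ⟨g, rfl⟩ := QuotientGroup.mk'_surjective N g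
    obtain ⟨k, hk⟩ := H _ D (hC.conj g) hD (by
      rw [← comap_map_mk', map_conj_smul, hg, comap_map_mk'])
    exact ⟨k * g, by rw [← conj_smul_conj_smul, hk]⟩
  intro C D hC hD hCD
  by_cases h : C ⊔ N = ⊤
  swap
  · obtain ⟨k, -, hk⟩ := ihL _ h C D hC hD le_sup_left (hCD ▸ le_sup_left)
    exact ⟨k, hk⟩
  have hsurj : ∀ E : Subgroup G, E ⊔ N = ⊤ →
      Function.Surjective ((QuotientGroup.mk' N).comp E.subtype) := fun E hE => by
    rw [← MonoidHom.range_eq_top, MonoidHom.range_comp, range_subtype, ← map_comap_mk' N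
      (E.map _), comap_map_mk', hE, map_top_of_surjective _ (QuotientGroup.mk'_surjective N)]
  have hQ : ∀ E : Subgroup G, IsCarter E → E ⊔ N = ⊤ → (pPrimeCore p E).map E.subtype ⊔ N =
      (pPrimeCore p (G ⧸ N)).comap (QuotientGroup.mk' N) := fun E hE hE' => by
    have := hE.1
    rw [← comap_map_mk', map_map, map_pPrimeCore_of_isNilpotent hp (hsurj E hE')]
  have hQ' := (hQ C hC h).trans (hQ D hD (hCD ▸ h)).symm
  set QC := (pPrimeCore p C).map C.subtype
  set QD := (pPrimeCore p D).map D.subtype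
  have hcC : (Nat.card QC).Coprime p := coprime_card_map_pPrimeCore_subtype C
  have hcD : (Nat.card QD).Coprime p := coprime_card_map_pPrimeCore_subtype D
  obtain ⟨k, -, hk⟩ := Solv.sz_star (A := QC) (K := N) (S := QD) le_normalizer_of_normal
    (coprime_card_of_isPGroup hpN hcC).symm (Or.inr inferInstance) fun a ha => by
      have : a ∈ N ⊔ QD := by rw [sup_comm, ← hQ']; exact mem_sup_left ha
      obtain ⟨y, hy, z, hz, rfl⟩ := mem_sup_of_normal_left.mp this
      exact ⟨y, hy, by simpa using hz⟩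
  have hcard : Nat.card QC = Nat.card QD := by
    have h1 := card_sup_mul_card_inf QC N
    have h2 := card_sup_mul_card_inf QD N
    rw [disjoint_iff.mp (disjoint_of_isPGroup_of_coprime hpN hcC).symm] at h1
    rw [disjoint_iff.mp (disjoint_of_isPGroup_of_coprime hpN hcD).symm, ← hQ', h1] at h2
    exact Nat.eq_of_mul_eq_mul_right Nat.card_pos h2
  have hk' : MulAut.conj k⁻¹ • QC = QD :=
    Solv.conj_smul_eq_of_forall_mem (by simpa using hk) hcard.ge
  have hCN : MulAut.conj k⁻¹ • C ≤ normalizer (QD : Set G) := by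
    rw [← hk', Solv.normalizer_conj_smul, pointwise_smul_le_pointwise_smul_iff]
    exact le_normalizer.trans (normalizer_le_normalizer_map_char C _)
  have hDN : D ≤ normalizer (QD : Set G) :=
    le_normalizer.trans (normalizer_le_normalizer_map_char D _)
  by_cases hn : normalizer (QD : Set G) = ⊤
  swap
  · obtain ⟨l, -, hl⟩ := ihL _ hn _ D (hC.conj k⁻¹) hD hCN hDN
    exact ⟨l * k⁻¹, by rw [← conj_smul_conj_smul, hl]⟩
  have := normalizer_eq_top_iff.mp hn
  have := hD.1
  have h1 : Group.IsNilpotent (G ⧸ N) := Group.nilpotent_of_surjective _ (hsurj D (hCD ▸ h))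
  have h2 : IsPGroup p (G ⧸ QD) := by
    have h3 : IsPGroup p (D.map (QuotientGroup.mk' QD)) := by
      have h4 : D.map (QuotientGroup.mk' QD) =
          ((pCore p D).map D.subtype).map (QuotientGroup.mk' QD) := by
        conv_lhs => rw [← range_subtype D, MonoidHom.range_eq_map,
          ← pCore_sup_pPrimeCore_eq_top hp, Subgroup.map_sup, Subgroup.map_sup]
        rw [map_mk'_self, sup_bot_eq]
      rw [h4]
      exact (isPGroup_map_pCore_subtype D).map _
    have : (N.map (QuotientGroup.mk' QD)).Normal := hN.map _ (QuotientGroup.mk'_surjective _)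
    have h5 := h3.to_sup_of_normal_right (hpN.map (QuotientGroup.mk' QD))
    rw [← Subgroup.map_sup, ← hCD, h, map_top_of_surjective _ (QuotientGroup.mk'_surjective _)]
      at h5
    exact h5.of_equiv topEquiv
  have := h2.isNilpotent
  have := isNilpotent_of_quotients QD N
    (disjoint_iff.mp (disjoint_of_isPGroup_of_coprime hpN hcD).symm)
  exact ⟨1, by rw [hC.eq_top, hD.eq_top, map_one, one_smul]⟩

section

variable {G : Type*} [Group G] [Finite G] [Group.IsSolvable G]

theorem IsCarter.exists_conj {C D : Subgroup G} (hC : IsCarter C) (hD : IsCarter D) :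
    ∃ g : G, MulAut.conj g • C = D := carter_conj_aux _ G rfl C D hC hD

theorem IsCarter.map_mk' {C : Subgroup G} (hC : IsCarter C) (N : Subgroup G) [N.Normal] :
    IsCarter (C.map (QuotientGroup.mk' N)) := by
  refine ⟨isNilpotent_map hC.1 _, normalizer_map_mk'_eq_iff.mpr
    (hC.normalizer_sup fun D hD hle => ?_)⟩
  obtain ⟨k, hk⟩ := (hD.subgroupOf hle).exists_conj (hC.subgroupOf le_sup_left)
  exact ⟨k, k.2, conj_smul_eq_of_subgroupOf hle le_sup_left hk⟩

theorem IsCarter.sup_ker_eq_top {C : Subgroup G} (hC : IsCarter C) {G' : Type*} [Group G']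
    [Group.IsNilpotent G'] (f : G →* G') : C ⊔ f.ker = ⊤ := by
  have := isNilpotent_of_injective _ (QuotientGroup.kerLift_injective f)
  rw [← comap_map_mk', (hC.map_mk' f.ker).eq_top, comap_top]

end

theorem exists_carter_aux (n : ℕ) :
    ∀ (G : Type u) [Group G] [Finite G] [Group.IsSolvable G], Nat.card G = n →
      ∃ C : Subgroup G, IsCarter C := by
  induction n using Nat.strong_induction_on with
  | _ n ih =>
  intro G _ _ _ hn
  cases subsingleton_or_nontrivial G
  · exact ⟨⊤, inferInstance, normalizer_eq_top _⟩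
  obtain ⟨N, p, hN, hNb, hp, -, -, hpN, -⟩ := exists_minimal_normal_elementary G
  have : Fact p.Prime := ⟨hp⟩
  obtain ⟨K', hK'⟩ := ih _ (hn ▸ card_quotient_lt hNb) (G ⧸ N) rfl
  set K := K'.comap (QuotientGroup.mk' N) with hK
  by_cases h : K = ⊤
  swap
  · obtain ⟨C, hC⟩ := ih _ (hn ▸ card_lt_card_of_ne_top h) K rfl
    refine ⟨C.map K.subtype, isNilpotent_map hC.1 _, le_antisymm (fun x hx => ?_) le_normalizer⟩
    have := hK'.1
    have h1 := congrArg (Subgroup.map K.subtype)
      (hC.sup_ker_eq_top ((QuotientGroup.mk' N).subgroupComap K'))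
    have h2 : ((QuotientGroup.mk' N).subgroupComap K').ker = N.subgroupOf K := by
      ext y
      rw [MonoidHom.mem_ker, mem_subgroupOf, Subtype.ext_iff]
      exact QuotientGroup.eq_one_iff _
    rw [h2, Subgroup.map_sup, map_subgroupOf_eq_of_le (le_comap_mk' N K'),
      ← MonoidHom.range_eq_map, range_subtype] at h1
    have h3 : x ∈ normalizer (K : Set G) := by
      rw [← h1]
      exact normalizer_inf_normalizer_le_normalizer_sup _ _
        ⟨hx, by rw [normalizer_eq_top]; trivial⟩
    rw [hK, ← comap_normalizer_eq_of_surjective _ (QuotientGroup.mk'_surjective N), hK'.2] at h3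
    refine ⟨⟨x, h3⟩, ?_, rfl⟩
    rw [← hC.2]
    have := subgroupOf_le_normalizer_subgroupOf K (zpowers_le.mpr hx)
      (show (⟨x, h3⟩ : K) ∈ _ from mem_zpowers x)
    rwa [subgroupOf, comap_map_eq_self_of_injective K.subtype_injective] at this
  have h1 : Group.IsNilpotent (G ⧸ N) := by
    have := hK'.1
    rwa [← map_comap_mk' N K', ← hK, h, map_top_of_surjective _ (QuotientGroup.mk'_surjective N),
      Group.isNilpotent_top] at this
  set R := (pPrimeCore p (G ⧸ N)).comap (QuotientGroup.mk' N) with hR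
  have hNR : N ≤ R := le_comap_mk' N _
  obtain ⟨Q₀, hQ₀⟩ := exists_right_complement'_of_coprime (N := N.subgroupOf R) (by
    rw [card_subgroupOf_of_le hNR, ← relIndex, hR, relIndex_comap_mk']
    exact coprime_card_of_isPGroup hpN (coprime_card_pPrimeCore p _))
  set Q := Q₀.map R.subtype with hQ
  have hcQ : (Nat.card Q).Coprime p := by
    rw [hQ, card_map_subtype, ← hQ₀.symm.index_eq_card, ← relIndex, hR, relIndex_comap_mk']
    exact coprime_card_pPrimeCore p _
  obtain ⟨k, hk⟩ : ∃ k, Q.index = p ^ k := by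
    obtain ⟨a, ha⟩ := IsPGroup.iff_card.mp hpN
    obtain ⟨b, hb⟩ := IsPGroup.iff_card.mp (isPGroup_quotient_pPrimeCore (G := G ⧸ N) hp)
    refine ⟨a + b, ?_⟩
    rw [hQ, index_map_subtype, hQ₀.index_eq_card, card_subgroupOf_of_le hNR, ha, hR,
      index_comap_of_surjective _ (QuotientGroup.mk'_surjective N), index_eq_card, hb, pow_add]
  set C := normalizer (Q : Set G) with hC
  have hidx : (Q.subgroupOf C).index ∣ p ^ k := hk ▸ relIndex_dvd_index_of_le le_normalizer
  have : (Q.subgroupOf C).Normal := normal_in_normalizer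
  refine ⟨C, ?_, le_antisymm ?_ le_normalizer⟩
  · have := (IsPGroup.of_card_dvd_pow (G := C ⧸ Q.subgroupOf C) hidx).isNilpotent
    have := isNilpotent_of_injective _
      (QuotientGroup.kerLift_injective ((QuotientGroup.mk' N).comp C.subtype))
    refine isNilpotent_of_quotients (Q.subgroupOf C) ((QuotientGroup.mk' N).comp C.subtype).ker ?_
    rw [← MonoidHom.comap_ker, QuotientGroup.ker_mk', subgroupOf, ← comap_inf,
      disjoint_iff.mp (disjoint_of_isPGroup_of_coprime hpN hcQ).symm]
    exact C.ker_subtype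
  · have h2 : (pPrimeCore p C).map C.subtype = Q := by
      refine le_antisymm (map_le_iff_le_comap.mpr (le_of_coprime_index (N := Q.subgroupOf C) ?_))
        (le_map_pPrimeCore_subtype le_normalizer le_rfl hcQ)
      exact ((coprime_card_pPrimeCore p C).pow_right k).coprime_dvd_right hidx
    have := normalizer_le_normalizer_map_char C (pPrimeCore p C)
    rwa [h2] at this

theorem exists_carter (G : Type*) [Group G] [Finite G] [Group.IsSolvable G] :
    ∃ C : Subgroup G, IsCarter C := exists_carter_aux _ G rfl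

end Cfsg.Agent.Fit
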